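import Mathlib
import Cfsg.Agent.Lib.Helper41.CS3.GoodDefs

/-!
# CS3 (S4284), part GOOD, package [AT]

In `C(a) = A × T` (`A` abelian of order prime to `t`, `T` a `t`-group commuting with `A`),
an `r`-element (`r ≠ t` prime) of `C(a)` lies in `A`, hence is central in `C(a)`.
-/

set_option autoImplicit false

namespace Cfsg.Agent.Lib.Helper76.CS3

open Cfsg.Agent.Lib.Helper41.CS3

universe u

/-- elements of `A ⊔ T` are products when `A` and `T` commute elementwise. -/
theorem mem_sup_of_comm {G : Type u} [Group G] (A T : Subgroup G) (h : Comm A T) (x : G)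
    (hx : x ∈ A ⊔ T) : ∃ α ∈ A, ∃ β ∈ T, x = α * β := by
  rw [Subgroup.sup_eq_closure] at hx
  induction hx using Subgroup.closure_induction with
  | mem x hx =>
    rcases hx with hx | hx
    · exact ⟨x, hx, 1, T.one_mem, (mul_one x).symm⟩
    · exact ⟨1, A.one_mem, x, hx, (one_mul x).symm⟩
  | one => exact ⟨1, A.one_mem, 1, T.one_mem, (mul_one 1).symm⟩
  | mul x y _ _ ihx ihy =>
    obtain ⟨α1, hα1, β1, hβ1, rfl⟩ := ihx
    obtain ⟨α2, hα2, β2, hβ2, rfl⟩ := ihy
    refine ⟨α1 * α2, A.mul_mem hα1 hα2, β1 * β2, T.mul_mem hβ1 hβ2, ?_⟩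
    have h1 := h α2 hα2 β1 hβ1
    calc α1 * β1 * (α2 * β2) = α1 * (β1 * α2) * β2 := by group
      _ = α1 * (α2 * β1) * β2 := by rw [h1]
      _ = α1 * α2 * (β1 * β2) := by group
  | inv x _ ih =>
    obtain ⟨α, hα, β, hβ, rfl⟩ := ih
    refine ⟨α⁻¹, A.inv_mem hα, β⁻¹, T.inv_mem hβ, ?_⟩
    have h1 := h α hα β hβ
    rw [h1, mul_inv_rev]

/-- an element killed by two coprime exponents is trivial. -/
theorem eq_one_of_pow_coprime {G : Type u} [Group G] (w : G) (a b : ℕ) (hab : a.Coprime b)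
    (ha : w ^ a = 1) (hb : w ^ b = 1) : w = 1 := by
  have h1 : orderOf w ∣ a := orderOf_dvd_of_pow_eq_one ha
  have h2 : orderOf w ∣ b := orderOf_dvd_of_pow_eq_one hb
  have h3 : orderOf w ∣ 1 := by
    have := Nat.dvd_gcd h1 h2
    rwa [Nat.Coprime.gcd_eq_one hab] at this
  exact orderOf_eq_one_iff.mp (Nat.dvd_one.mp h3)

/-- **[AT]** -/
theorem pkgAt : PkgAt.{u} := by
  intro G _ _ n t a A T hC r u hr hrt hu hua
  have hsup : u ∈ A ⊔ T := by rw [hC.sup]; exact hua
  obtain ⟨α, hα, β, hβ, rfl⟩ := mem_sup_of_comm A T hC.a_t u hsup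
  obtain ⟨k, hk⟩ := hu
  obtain ⟨j, hj⟩ := hC.pT ⟨β, hβ⟩
  have hj' : β ^ t ^ j = 1 := by
    have := congrArg Subtype.val hj
    simpa using this
  have hcomm : Commute α β := hC.a_t α hα β hβ
  have hαA : α ^ Nat.card A = 1 := by
    have h : (⟨α, hα⟩ : A) ^ Nat.card A = 1 := pow_card_eq_one'
    have h2 := congrArg Subtype.val h
    simpa only [Subgroup.coe_pow, Subgroup.coe_one] using h2
  have hpow : (α * β) ^ Nat.card A = β ^ Nat.card A := by
    rw [hcomm.mul_pow, hαA, one_mul]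
  have htr : (t ^ j).Coprime (r ^ k) := by
    apply Nat.Coprime.pow
    exact (Nat.coprime_primes hC.tp hr).mpr (fun h => hrt h.symm)
  have hw : β ^ Nat.card A = 1 := by
    apply eq_one_of_pow_coprime _ (t ^ j) (r ^ k) htr
    · rw [← pow_mul, mul_comm, pow_mul, hj', one_pow]
    · rw [← hpow, ← pow_mul, mul_comm, pow_mul, ← hk, pow_orderOf_eq_one, one_pow]
  have hβ1 : β = 1 := by
    apply eq_one_of_pow_coprime _ (Nat.card A) (t ^ j) (Nat.Coprime.pow_right j hC.copA) hw hj'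
  subst hβ1
  rw [mul_one]
  rw [← hC.sup]
  apply sup_le
  · intro x hx
    rw [Subgroup.mem_centralizer_iff]
    intro h hh
    rw [Set.mem_singleton_iff] at hh
    subst hh
    exact hC.a_ab h hα x hx
  · intro x hx
    rw [Subgroup.mem_centralizer_iff]
    intro h hh
    rw [Set.mem_singleton_iff] at hh
    subst hh
    exact hC.a_t h hα x hx

end Cfsg.Agent.Lib.Helper76.CS3
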